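import Mathlib

/-!
Sections by alternating groups, group theoretic part: an element of squarefree order of a quotient which is
conjugate to a power lifts to commuting elements of prime order sharing one element that acts by that power.
-/

set_option autoImplicit false

open scoped Pointwise

namespace CfsgLib.AltSectF4

/-- A power of `s` congruent to `s` modulo `ℓ` which is a root of unity modulo a given power of `ℓ`. -/
theorem teich {ℓ : ℕ} [hℓ : Fact ℓ.Prime] {s : ℕ} (hs : ¬ ℓ ∣ s) (k : ℕ) :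
    ((s ^ ℓ ^ k : ℕ) : ZMod ℓ) = (s : ZMod ℓ) ∧ (s ^ ℓ ^ k) ^ (ℓ - 1) ≡ 1 [MOD ℓ ^ (k + 1)] := by
  refine ⟨by rw [Nat.cast_pow, ZMod.pow_card_pow], ?_⟩
  have hcop : s.Coprime (ℓ ^ (k + 1)) :=
    Nat.Coprime.pow_right _ ((hℓ.out.coprime_iff_not_dvd.2 hs).symm)
  have h := Nat.ModEq.pow_totient hcop
  rwa [Nat.totient_prime_pow_succ hℓ.out, pow_mul] at h

variable {H Q : Type*} [Group H] [Group Q] {ℓ : ℕ} [Fact ℓ.Prime]

/-- In an abelian `ℓ`-group an automorphism of finite order prime to `ℓ` has an eigen element over an eigen element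
of an elementary quotient. -/
theorem exists_eigen {A : Type*} [CommGroup A] [Finite A] (hA : IsPGroup ℓ A) (α : A →* A) {n s : ℕ}
    (hd : ℓ - 1 ∣ n) (hn : ¬ ℓ ∣ n) (hs : ¬ ℓ ∣ s) (hα : ∀ x, α^[n] x = x) {C : Type*} [CommGroup C]
    (φ : A →* C) (hφ : ∀ x, φ (α x) = φ x ^ s) (hC : ∀ y : C, y ^ ℓ = 1) {x₀ : A} (hx₀ : φ x₀ ≠ 1) :
    ∃ x : A, φ x ≠ 1 ∧ ∃ S : ℕ, (S : ZMod ℓ) = s ∧ α x = x ^ S := by
  obtain ⟨k, hk⟩ := (IsPGroup.iff_card (p := ℓ)).1 hA
  obtain ⟨hS, ha⟩ := teich hs k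
  set S : ℕ := s ^ ℓ ^ k
  have hpow : ∀ x : A, x ^ S ^ n = x := by
    intro x
    obtain ⟨r, rfl⟩ := hd
    conv_rhs => rw [← pow_one x]
    rw [pow_eq_pow_iff_modEq]
    have h1 : S ^ ((ℓ - 1) * r) ≡ 1 [MOD ℓ ^ (k + 1)] := by
      rw [pow_mul]; simpa using ha.pow r
    refine h1.of_dvd ((orderOf_dvd_natCard x).trans ?_)
    rw [hk, pow_succ]; exact dvd_mul_right _ _
  have hmod : ∀ (y : C) (u v : ℕ), (u : ZMod ℓ) = v → y ^ u = y ^ v := by
    intro y u v huv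
    rw [pow_eq_pow_iff_modEq]
    exact ((ZMod.natCast_eq_natCast_iff u v ℓ).1 huv).of_dvd (orderOf_dvd_of_pow_eq_one (hC y))
  let f : ℕ → A := fun i => (α^[i] x₀) ^ S ^ (n - i)
  refine ⟨∏ i ∈ Finset.range n, f i, ?_, S, hS, ?_⟩
  · have hit : ∀ i : ℕ, φ (α^[i] x₀) = φ x₀ ^ s ^ i := by
      intro i
      induction i with
      | zero => simp
      | succ i ih => rw [Function.iterate_succ_apply', hφ, ih, ← pow_mul, pow_succ]
    have hterm : ∀ i ∈ Finset.range n, φ (f i) = φ x₀ ^ s ^ n := by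
      intro i hi
      rw [Finset.mem_range] at hi
      simp only [f, map_pow, hit, ← pow_mul]
      refine hmod _ _ _ ?_
      push_cast
      rw [hS, ← pow_add, Nat.add_sub_cancel' hi.le]
    rw [map_prod, Finset.prod_congr rfl hterm, Finset.prod_const, Finset.card_range, ← pow_mul]
    intro h
    apply hx₀
    have hℓ : ℓ.Prime := Fact.out
    have hcop : (s ^ n * n).Coprime ℓ := by
      rw [Nat.coprime_mul_iff_left]
      exact ⟨(hℓ.coprime_iff_not_dvd.2 hs).symm.pow_left _, (hℓ.coprime_iff_not_dvd.2 hn).symm⟩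
    rw [← orderOf_eq_one_iff, ← Nat.dvd_one, ← hcop.gcd_eq_one]
    exact Nat.dvd_gcd (orderOf_dvd_of_pow_eq_one h) (orderOf_dvd_of_pow_eq_one (hC _))
  · rw [map_prod, ← Finset.prod_pow]
    have hstep : ∀ i ∈ Finset.range n, α (f i) = f (i + 1) ^ S := by
      intro i hi
      rw [Finset.mem_range] at hi
      simp only [f, map_pow, ← Function.iterate_succ_apply' α, ← pow_mul, ← pow_succ]
      rw [show n - (i + 1) + 1 = n - i by omega]
    rw [Finset.prod_congr rfl hstep, Finset.prod_pow, Finset.prod_pow]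
    congr 1
    obtain ⟨m, rfl⟩ : ∃ m, n = m + 1 :=
      ⟨n - 1, by have : n ≠ 0 := fun h => hn (h ▸ dvd_zero ℓ); omega⟩
    have hlast : f (m + 1) = f 0 := by
      simp only [f, hα, Function.iterate_zero_apply, Nat.sub_self, Nat.sub_zero, pow_zero, pow_one, hpow]
    rw [Finset.prod_range_succ, hlast, Finset.prod_range_succ' f, mul_comm]

/-- The abelian quotient makes an `ℓ`-group cyclic. -/
theorem zpowers_eq_top_of_sup_commutator {S : Type*} [Group S] [Finite S] (hS : IsPGroup ℓ S) {y : S}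
    (h : Subgroup.zpowers y ⊔ commutator S = ⊤) : Subgroup.zpowers y = ⊤ := by
  haveI : Group.IsNilpotent S := hS.isNilpotent
  rcases eq_top_or_exists_le_coatom (Subgroup.zpowers y) with h' | ⟨M, hM, hyM⟩
  · exact h'
  exfalso
  haveI hnM : M.Normal := Subgroup.NormalizerCondition.normal_of_coatom M
    Group.normalizerCondition_of_isNilpotent hM
  haveI : Nontrivial (S ⧸ M) := QuotientGroup.nontrivial_iff.2 hM.1
  have hZ : (Subgroup.center (S ⧸ M)).comap (QuotientGroup.mk' M) = ⊤ := by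
    refine hM.2 _ (lt_of_le_of_ne (fun z hz => ?_) fun e => ?_)
    · rw [Subgroup.mem_comap, QuotientGroup.mk'_apply, (QuotientGroup.eq_one_iff z).2 hz]
      exact one_mem _
    · obtain ⟨w, hw, hw1⟩ := (Subgroup.bot_or_exists_ne_one (Subgroup.center (S ⧸ M))).resolve_left
        ((Subgroup.nontrivial_iff_ne_bot _).1 ((hS.to_quotient M).center_nontrivial))
      induction w using QuotientGroup.induction_on with
      | H z => exact hw1 ((QuotientGroup.eq_one_iff z).2 (e ▸ hw))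
  have hcM : commutator S ≤ M := by
    rw [commutator_def, Subgroup.commutator_le]
    intro a _ b _
    rw [← QuotientGroup.eq_one_iff (N := M)]
    refine (commutatorElement_eq_one_iff_mul_comm (g₁ := (a : S ⧸ M)) (g₂ := (b : S ⧸ M))).2 ?_
    have ha : (a : S ⧸ M) ∈ Subgroup.center (S ⧸ M) := by
      show a ∈ (Subgroup.center (S ⧸ M)).comap (QuotientGroup.mk' M)
      rw [hZ]; exact Subgroup.mem_top a
    exact (Subgroup.mem_center_iff.1 ha _).symm
  exact hM.1 (top_le_iff.1 (h ▸ sup_le hyM hcM))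

/-- An element of order prime to `ℓ` acting by `s` on the image of an `ℓ`-group has a cyclic eigen element. -/
theorem exists_cyclic_eigen [Finite H] (π : H →* Q) {d : Q} (hd : d ^ ℓ = 1) {u : H} {n s : ℕ}
    (hdn : ℓ - 1 ∣ n) (hn : ¬ ℓ ∣ n) (hs : ¬ ℓ ∣ s) (hun : u ^ n = 1) :
    ∀ (N : ℕ) (S : Subgroup H), Nat.card S ≤ N → IsPGroup ℓ S → (∀ x ∈ S, u * x * u⁻¹ ∈ S) →
      (∀ x ∈ S, π x ∈ Subgroup.zpowers d) → (∀ x ∈ S, π (u * x * u⁻¹) = π x ^ s) → (∃ x ∈ S, π x ≠ 1) →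
      ∃ x ∈ S, π x ≠ 1 ∧ ∃ S' : ℕ, (S' : ZMod ℓ) = s ∧ u * x * u⁻¹ = x ^ S' := by
  intro N
  induction N with
  | zero => intro S hS; exact absurd hS (by have := Nat.card_pos (α := S); omega)
  | succ N ih =>
    intro S hS hp hinv hmem hact ⟨x₀, hx₀, hx₀'⟩
    let αS : S →* S :=
      ((MulAut.conj u).toMonoidHom.comp S.subtype).codRestrict S fun x => hinv x x.2
    let α : Abelianization S →* Abelianization S := Abelianization.map αS
    let φS : S →* Subgroup.zpowers d := (π.comp S.subtype).codRestrict _ fun x => hmem x x.2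
    letI : CommGroup (Subgroup.zpowers d) := IsCyclic.commGroup
    let φ : Abelianization S →* Subgroup.zpowers d := Abelianization.lift φS
    haveI : Finite (Abelianization S) := Quotient.finite _
    have hA : IsPGroup ℓ (Abelianization S) := hp.to_quotient _
    have hαS : ∀ (i : ℕ) (y : S), ((αS^[i] y : S) : H) = u ^ i * y * (u ^ i)⁻¹ := by
      intro i y
      induction i with
      | zero => simp
      | succ i ih =>
        rw [Function.iterate_succ_apply', show ∀ z : S, ((αS z : S) : H) = u * z * u⁻¹ from fun z => rfl, ih,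
          pow_succ']
        group
    have hα : ∀ x, α^[n] x = x := by
      intro x
      induction x using QuotientGroup.induction_on with
      | H y =>
        have e : ∀ (i : ℕ) (y : S), α^[i] (Abelianization.of y) = Abelianization.of (αS^[i] y) := by
          intro i y
          induction i with
          | zero => rfl
          | succ i ih => rw [Function.iterate_succ_apply', ih, Function.iterate_succ_apply']; rfl
        refine (e n y).trans (congrArg _ (Subtype.ext ?_))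
        rw [hαS, hun]; simp
    have hφ : ∀ x, φ (α x) = φ x ^ s := by
      intro x
      induction x using QuotientGroup.induction_on with
      | H y => exact Subtype.ext (hact y y.2)
    have hC : ∀ y : Subgroup.zpowers d, y ^ ℓ = 1 := by
      intro y
      obtain ⟨i, hi⟩ := y.2
      refine Subtype.ext ?_
      show (y : Q) ^ ℓ = 1
      rw [← hi]
      show (d ^ i) ^ ℓ = 1
      rw [← zpow_natCast, ← zpow_mul, mul_comm, zpow_mul, zpow_natCast, hd, one_zpow]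
    obtain ⟨x, hx, s', hs', hxs⟩ := exists_eigen hA α hdn hn hs hα φ hφ hC (x₀ := Abelianization.of ⟨x₀, hx₀⟩)
      (fun e => hx₀' (congrArg Subtype.val e))
    induction x using QuotientGroup.induction_on with
    | H y =>
    let T : Subgroup S := Subgroup.zpowers y ⊔ commutator S
    have hy' : (αS y)⁻¹ * y ^ s' ∈ commutator S := QuotientGroup.eq.1 hxs
    by_cases hTtop : T = ⊤
    · have htop := zpowers_eq_top_of_sup_commutator hp hTtop
      have hc : commutator S = ⊥ := by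
        rw [commutator_def, eq_bot_iff, Subgroup.commutator_le]
        intro a _ b _
        obtain ⟨i, rfl⟩ := htop ▸ Subgroup.mem_top a
        obtain ⟨j, rfl⟩ := htop ▸ Subgroup.mem_top b
        rw [Subgroup.mem_bot, commutatorElement_eq_one_iff_mul_comm]
        exact (Commute.zpow_zpow (Commute.refl y) i j).eq
      rw [hc, Subgroup.mem_bot, inv_mul_eq_one] at hy'
      exact ⟨y, y.2, fun e => hx (Subtype.ext e), s', hs', congrArg Subtype.val hy'⟩
    · have hT : ∀ z ∈ T, αS z ∈ T := by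
        have hle : T.map αS ≤ T := by
          rw [Subgroup.map_sup, sup_le_iff, MonoidHom.map_zpowers, Subgroup.zpowers_le]
          refine ⟨?_, le_trans ?_ le_sup_right⟩
          · have : αS y = y ^ s' * ((αS y)⁻¹ * y ^ s')⁻¹ := by group
            rw [this]
            exact T.mul_mem (Subgroup.mem_sup_left (Subgroup.npow_mem_zpowers y s'))
              (Subgroup.mem_sup_right ((commutator S).inv_mem hy'))
          · rw [commutator_def, Subgroup.map_commutator]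
            exact Subgroup.commutator_mono le_top le_top
        exact fun z hz => hle ⟨z, hz, rfl⟩
      let S' : Subgroup H := T.map S.subtype
      have hS' : S' ≤ S := Subgroup.map_subtype_le T
      have hcard : Nat.card S' ≤ N := by
        have h1 : Nat.card S' = Nat.card T := Subgroup.card_map_of_injective S.subtype_injective
        have h2 : Nat.card T < Nat.card S := by
          refine lt_of_le_of_ne (Subgroup.card_le_card_group T) fun e => hTtop ?_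
          exact Subgroup.eq_top_of_card_eq T e
        omega
      have hinv' : ∀ x ∈ S', u * x * u⁻¹ ∈ S' := by
        rintro _ ⟨z, hz, rfl⟩
        exact ⟨αS z, hT z hz, rfl⟩
      obtain ⟨z, hz, h'⟩ := ih S' hcard ((hp.to_subgroup T).map _) hinv' (fun z hz => hmem z (hS' hz))
        (fun z hz => hact z (hS' hz)) ⟨y, ⟨y, Subgroup.mem_sup_left
        (Subgroup.mem_zpowers y), rfl⟩, fun e => hx (Subtype.ext e)⟩
      exact ⟨z, hS' hz, h'⟩

/-- The eigen element can be taken of order `ℓ`. -/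
theorem exists_order_eigen [Finite H] (π : H →* Q) {d : Q} (hd : d ^ ℓ = 1) {u : H} {n s : ℕ}
    (hdn : ℓ - 1 ∣ n) (hn : ¬ ℓ ∣ n) (hs : ¬ ℓ ∣ s) (hun : u ^ n = 1) {P : Subgroup H} (hP : IsPGroup ℓ P)
    (hinv : ∀ x ∈ P, u * x * u⁻¹ ∈ P) (hmem : ∀ x ∈ P, π x ∈ Subgroup.zpowers d)
    (hact : ∀ x ∈ P, π (u * x * u⁻¹) = π x ^ s) (hne : ∃ x ∈ P, π x ≠ 1) :
    ∃ y ∈ P, orderOf y = ℓ ∧ u * y * u⁻¹ = y ^ s := by
  obtain ⟨x, hxP, hx1, s', hs', hxs⟩ :=
    exists_cyclic_eigen π hd hdn hn hs hun _ P le_rfl hP hinv hmem hact hne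
  obtain ⟨j, hj⟩ := hP ⟨x, hxP⟩
  have hj' : x ^ ℓ ^ j = 1 := congrArg Subtype.val hj
  obtain ⟨k, -, hk⟩ := (Nat.dvd_prime_pow Fact.out).1 (orderOf_dvd_of_pow_eq_one hj')
  rcases k with - | k
  · rw [pow_zero, orderOf_eq_one_iff] at hk
    exact absurd (hk ▸ map_one π) hx1
  have hℓ : 0 < ℓ := (Fact.out : ℓ.Prime).pos
  have hord : orderOf (x ^ ℓ ^ k) = ℓ := by
    rw [orderOf_pow_of_dvd (by positivity) (hk ▸ pow_dvd_pow ℓ (Nat.le_succ k)), hk, pow_succ,
      Nat.mul_div_cancel_left _ (by positivity)]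
  refine ⟨x ^ ℓ ^ k, P.pow_mem hxP _, hord, ?_⟩
  rw [← conj_pow, hxs, ← pow_mul, mul_comm, pow_mul, pow_eq_pow_iff_modEq, hord]
  exact (ZMod.natCast_eq_natCast_iff _ _ _).1 hs'

omit [Fact ℓ.Prime] in
/-- A power of large exponent kills the `ℓ`-part of the order. -/
theorem not_dvd_orderOf_pow [Finite H] (hℓ : ℓ.Prime) {u : H} {b : ℕ} (hb : ℓ ^ orderOf u ∣ b) :
    ¬ ℓ ∣ orderOf (u ^ b) := by
  intro h
  rw [orderOf_pow] at h
  have key : ∀ j ≤ orderOf u, ℓ ^ j ∣ orderOf u := by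
    intro j
    induction j with
    | zero => intro _; simp
    | succ j ih =>
      intro hj
      have h1 : ℓ ^ j ∣ (orderOf u).gcd b :=
        Nat.dvd_gcd (ih (by omega)) ((pow_dvd_pow ℓ (by omega : j ≤ orderOf u)).trans hb)
      have h2 := Nat.mul_dvd_mul h1 h
      rwa [← pow_succ, Nat.mul_div_cancel' (Nat.gcd_dvd_left _ _)] at h2
  have := Nat.le_of_dvd (orderOf_pos u) (key _ le_rfl)
  exact absurd this (not_le.2 (Nat.lt_pow_self hℓ.one_lt))

omit [Fact ℓ.Prime] in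
/-- Inside a minimal preimage of a metacyclic group the Sylow subgroups over the cyclic part are normal. -/
theorem exists_min [Finite H] (π : H →* Q) {c t : Q} (hc : c ∈ π.range) (ht : t ∈ π.range) {s : ℕ}
    (htc : t * c * t⁻¹ = c ^ s) :
    ∃ (B : Subgroup H) (v : H), v ∈ B ∧ π v = t ∧ ∀ ℓ : ℕ, ℓ.Prime → ℓ ∣ orderOf c →
      ∃ P : Subgroup H, P ≤ B ∧ IsPGroup ℓ P ∧ (∀ b ∈ B, ∀ x ∈ P, b * x * b⁻¹ ∈ P) ∧
        (∀ x ∈ P, π x ∈ Subgroup.zpowers (c ^ (orderOf c / ℓ))) ∧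
        (∀ x ∈ P, π (v * x * v⁻¹) = π x ^ s) ∧ ∃ x ∈ P, π x ≠ 1 := by
  classical
  set S : Set (Subgroup H) := {B | c ∈ B.map π ∧ t ∈ B.map π}
  have hSn : S.Nonempty := ⟨⊤, by simpa [S, ← MonoidHom.range_eq_map] using And.intro hc ht⟩
  obtain ⟨B, hB, hmin⟩ := (Set.toFinite S).exists_minimal hSn
  obtain ⟨hBc, v, hvB, hv⟩ := hB
  obtain ⟨cb, hcb, hcb'⟩ := hBc
  refine ⟨B, v, hvB, hv, fun ℓ hℓ hdvd => ?_⟩
  haveI : Fact ℓ.Prime := ⟨hℓ⟩
  have hmin' : ∀ J : Subgroup B, c ∈ J.map (π.comp B.subtype) → t ∈ J.map (π.comp B.subtype) → J = ⊤ := by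
    intro J h1 h2
    have hJ : J.map B.subtype ∈ S := by
      simp only [S, Set.mem_setOf_eq, Subgroup.map_map]
      exact ⟨h1, h2⟩
    have hle := hmin hJ (Subgroup.map_subtype_le J)
    refine eq_top_iff.2 fun x _ => ?_
    obtain ⟨z, hz, hzx⟩ := hle x.2
    rwa [← Subtype.ext hzx]
  set ψ : B →* Q := π.comp B.subtype with hψ
  set d : Q := c ^ (orderOf c / ℓ) with hd
  set D : Subgroup Q := Subgroup.zpowers d with hD
  have hfin : IsOfFinOrder c := hcb' ▸ π.isOfFinOrder (isOfFinOrder_of_finite cb)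
  have hdord : orderOf d = ℓ := by
    have h0 := orderOf_pos_iff.2 hfin
    rw [hd, orderOf_pow_of_dvd, Nat.div_div_self hdvd h0.ne']
    · exact (Nat.div_pos (Nat.le_of_dvd h0 hdvd) hℓ.pos).ne'
    · exact Nat.div_dvd_of_dvd hdvd
  let N₀ : Subgroup B :=
    { carrier := {b | ∃ k : ℤ, ψ b * c * (ψ b)⁻¹ = c ^ k ∧ ∃ m : ℤ, (ψ b)⁻¹ * c * ψ b = c ^ m}
      one_mem' := ⟨1, by simp, 1, by simp⟩
      mul_mem' := by
        rintro a b ⟨k, hk, m, hm⟩ ⟨k', hk', m', hm'⟩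
        refine ⟨k * k', ?_, m' * m, ?_⟩
        · rw [map_mul, show ψ a * ψ b * c * (ψ a * ψ b)⁻¹ = ψ a * (ψ b * c * (ψ b)⁻¹) * (ψ a)⁻¹ by group,
            hk', ← conj_zpow, hk, ← zpow_mul]
        · rw [map_mul, show (ψ a * ψ b)⁻¹ * c * (ψ a * ψ b) = (ψ b)⁻¹ * ((ψ a)⁻¹ * c * ψ a) * ψ b by group,
            hm, show (ψ b)⁻¹ * c ^ m * ψ b = (ψ b)⁻¹ * c ^ m * ((ψ b)⁻¹)⁻¹ by rw [inv_inv], ← conj_zpow,
            inv_inv, hm', ← zpow_mul]
      inv_mem' := by
        rintro a ⟨k, hk, m, hm⟩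
        exact ⟨m, by rw [map_inv, inv_inv, hm], k, by rw [map_inv, inv_inv, hk]⟩ }
  have hN₀ : N₀ = ⊤ := by
    refine hmin' N₀ ⟨⟨cb, hcb⟩, ⟨1, ?_, 1, ?_⟩, hcb'⟩ ⟨⟨v, hvB⟩, ⟨(s : ℤ), ?_, ?_⟩, hv⟩
    · show π cb * c * (π cb)⁻¹ = _
      rw [hcb']; group
    · show (π cb)⁻¹ * c * π cb = _
      rw [hcb']; group
    · show π v * c * (π v)⁻¹ = _
      rw [hv, htc, zpow_natCast]
    · -- conjugation by the inverse is also a power
      show ∃ m : ℤ, (π v)⁻¹ * c * π v = c ^ m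
      rw [hv]
      have e : orderOf (c ^ s) = orderOf c := by
        rw [← htc]
        exact (MulAut.conj t).orderOf_eq c
      have hcop : (orderOf c).Coprime s := by
        rw [orderOf_pow' _ (by
          intro h0; rw [h0, pow_zero, orderOf_one] at e
          rw [← e] at hdvd; exact hℓ.not_dvd_one hdvd)] at e
        exact Nat.div_eq_self.1 e |>.resolve_left (orderOf_pos_iff.2 hfin).ne'
      obtain ⟨m, hm⟩ := exists_pow_eq_self_of_coprime hcop.symm
      refine ⟨(m : ℤ), ?_⟩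
      rw [zpow_natCast]
      calc t⁻¹ * c * t = t⁻¹ * (c ^ s) ^ m * t := by rw [hm]
        _ = t⁻¹ * (t * c ^ m * t⁻¹) * t := by rw [← conj_pow, htc]
        _ = c ^ m := by group
  have hpow : ∀ b : B, ∃ k : ℤ, ∀ z ∈ Subgroup.zpowers c, ψ b * z * (ψ b)⁻¹ = z ^ k := by
    intro b
    obtain ⟨k, hk, -⟩ := (hN₀ ▸ Subgroup.mem_top b : b ∈ N₀)
    refine ⟨k, ?_⟩
    rintro _ ⟨i, rfl⟩
    show ψ b * c ^ i * (ψ b)⁻¹ = (c ^ i) ^ k
    rw [← conj_zpow, hk, ← zpow_mul, mul_comm, zpow_mul]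
  have hDc : D ≤ Subgroup.zpowers c := Subgroup.zpowers_le.2 (Subgroup.npow_mem_zpowers c _)
  let M : Subgroup B := D.comap ψ
  haveI hMn : M.Normal := ⟨fun x hx b => by
    obtain ⟨k, hk⟩ := hpow b
    rw [Subgroup.mem_comap, map_mul, map_mul, map_inv, hk _ (hDc hx)]
    exact D.zpow_mem hx k⟩
  let P : Sylow ℓ M := default
  set P' : Subgroup B := (P : Subgroup M).map M.subtype with hP'
  -- the Sylow subgroup maps onto the cyclic part
  have hex : ∃ x ∈ P', ψ x ≠ 1 := by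
    by_contra h
    push Not at h
    let φ : M →* Q := ψ.comp M.subtype
    have hker : (P : Subgroup M) ≤ φ.ker := fun z hz => h _ ⟨z, hz, rfl⟩
    have hindex : φ.ker.index = ℓ := by
      rw [Subgroup.index_ker, show φ.range = D from ?_, Nat.card_zpowers, hdord]
      refine le_antisymm ?_ (Subgroup.zpowers_le.2 ?_)
      · rintro _ ⟨z, rfl⟩; exact z.2
      · refine ⟨⟨⟨cb, hcb⟩ ^ (orderOf c / ℓ), ?_⟩, ?_⟩
        · show ψ (⟨cb, hcb⟩ ^ (orderOf c / ℓ)) ∈ D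
          rw [map_pow, show ψ ⟨cb, hcb⟩ = c from hcb']
          exact Subgroup.mem_zpowers d
        · show ψ (⟨cb, hcb⟩ ^ (orderOf c / ℓ)) = d
          rw [map_pow, show ψ ⟨cb, hcb⟩ = c from hcb']
    have h5 := Subgroup.index_dvd_of_le hker
    rw [hindex] at h5
    exact P.not_dvd_index h5
  have hMD : ∀ x ∈ P', ψ x ∈ D := by
    rintro _ ⟨x, -, rfl⟩; exact x.2
  have hDmap : ∀ z ∈ D, z ∈ P'.map ψ := by
    obtain ⟨x, hx, hx1⟩ := hex
    haveI : Finite D := Nat.finite_of_card_ne_zero (by rw [Nat.card_zpowers, hdord]; exact hℓ.ne_zero)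
    have : P'.map ψ = D := by
      refine Subgroup.eq_of_le_of_card_ge (by rintro _ ⟨y, hy, rfl⟩; exact hMD y hy) ?_
      rw [Nat.card_zpowers, hdord]
      have hx' : orderOf (ψ x) = ℓ := by
        have h1 : orderOf (ψ x) ∣ ℓ := by
          have h2 := Subgroup.orderOf_dvd_natCard D (hMD x hx)
          rwa [Nat.card_zpowers, hdord] at h2
        exact ((Nat.dvd_prime hℓ).1 h1).resolve_left (by rwa [orderOf_eq_one_iff])
      haveI : Finite (P'.map ψ) := Finite.Set.finite_image _ _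
      exact hx'.ge.trans (Nat.le_of_dvd Nat.card_pos (Subgroup.orderOf_dvd_natCard _ ⟨x, hx, rfl⟩))
    exact fun z hz => this.symm ▸ hz
  have hfr : Subgroup.normalizer (P' : Set B) ⊔ M = ⊤ := Sylow.normalizer_sup_eq_top P
  have hnorm : Subgroup.normalizer (P' : Set B) = ⊤ := by
    have hall : (⊤ : Subgroup B).map ψ ≤ (Subgroup.normalizer (P' : Set B)).map ψ := by
      rw [← hfr, Subgroup.map_sup]
      refine sup_le le_rfl ?_
      rintro _ ⟨z, hz, rfl⟩
      exact Subgroup.map_mono Subgroup.le_normalizer (hDmap _ hz)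
    exact hmin' _ (hall ⟨⟨cb, hcb⟩, trivial, hcb'⟩) (hall ⟨⟨v, hvB⟩, trivial, hv⟩)
  refine ⟨P'.map B.subtype, Subgroup.map_subtype_le _, (P.isPGroup'.map _).map _, ?_, ?_, ?_, ?_⟩
  · rintro b hb _ ⟨x, hx, rfl⟩
    exact ⟨_, (Subgroup.mem_normalizer_iff.1 (hnorm ▸ Subgroup.mem_top (⟨b, hb⟩ : B)) x).1 hx, rfl⟩
  · rintro _ ⟨x, hx, rfl⟩
    exact hMD x hx
  · rintro _ ⟨x, hx, rfl⟩
    obtain ⟨i, hi⟩ := hDc (hMD x hx)
    show π (v * x * v⁻¹) = π x ^ s
    rw [map_mul, map_mul, map_inv, hv, show π x = c ^ i from hi.symm, ← conj_zpow, htc, ← zpow_natCast,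
      ← zpow_natCast (c ^ i), ← zpow_mul, ← zpow_mul, mul_comm]
  · obtain ⟨x, hx, hx1⟩ := hex
    exact ⟨x, ⟨x, hx, rfl⟩, hx1⟩

omit [Fact ℓ.Prime] in
/-- An element of order `L` conjugate to a power gives elements of every prime order dividing `L`, pairwise
commuting, with one element acting on all of them by that power. -/
theorem exists_lift [Finite H] (π : H →* Q) {c t : Q} (hc : c ∈ π.range) (ht : t ∈ π.range) {L E k s : ℕ}
    (hcL : orderOf c = L) (htc : t * c * t⁻¹ = c ^ s) (hk : 0 < k) (hLk : L ^ k % E = 1)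
    (hE : ∀ ℓ : ℕ, ℓ.Prime → ℓ ∣ L → ℓ - 1 ∣ E ∧ ¬ ℓ ∣ E ∧ ¬ ℓ ∣ s) :
    ∃ (u : H) (y : ℕ → H), (∀ ℓ : ℕ, ℓ.Prime → ℓ ∣ L → orderOf (y ℓ) = ℓ ∧ u * y ℓ * u⁻¹ = y ℓ ^ s) ∧
      ∀ ℓ ℓ' : ℕ, ℓ.Prime → ℓ ∣ L → ℓ'.Prime → ℓ' ∣ L → ℓ ≠ ℓ' → Commute (y ℓ) (y ℓ') := by
  classical
  obtain ⟨B, v, hvB, -, hP⟩ := exists_min π hc ht htc
  choose P hPB hPp hPn hPd hPa hPne using hP
  set b : ℕ := L ^ (k * orderOf v) with hb
  have hbE : b % E = 1 := by
    have hE1 : E ≠ 1 := fun h => by rw [h, Nat.mod_one] at hLk; exact zero_ne_one hLk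
    rw [hb, pow_mul, Nat.pow_mod, hLk, one_pow, Nat.one_mod_eq_one.2 hE1]
  set u : H := v ^ b with hu
  have huB : u ∈ B := B.pow_mem hvB b
  have hex : ∀ ℓ, ∀ h1 : ℓ.Prime, ∀ h2 : ℓ ∣ L, ∃ y ∈ P ℓ h1 (hcL ▸ h2), orderOf y = ℓ ∧ u * y * u⁻¹ = y ^ s := by
    intro ℓ h1 h2
    haveI : Fact ℓ.Prime := ⟨h1⟩
    obtain ⟨hd1, hd2, hd3⟩ := hE ℓ h1 h2
    have hℓb : ℓ ^ orderOf v ∣ b := by
      rw [hb]
      exact (pow_dvd_pow _ (Nat.le_mul_of_pos_left _ hk)).trans (pow_dvd_pow_of_dvd h2 _)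
    set d : Q := c ^ (orderOf c / ℓ) with hd
    have hdℓ : d ^ ℓ = 1 := by
      rw [hd, ← pow_mul, Nat.div_mul_cancel (hcL ▸ h2), pow_orderOf_eq_one]
    refine exists_order_eigen π (d := d) hdℓ (u := u) (n := E * orderOf u) (hd1.mul_right _) ?_ hd3
      (by rw [mul_comm, pow_mul, pow_orderOf_eq_one, one_pow]) (hPp ℓ h1 _) (fun x hx => hPn ℓ h1 _ u huB x hx)
      (hPd ℓ h1 _) ?_ (hPne ℓ h1 _)
    · rw [Nat.Prime.dvd_mul h1, not_or]
      exact ⟨hd2, not_dvd_orderOf_pow h1 hℓb⟩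
    · have hit : ∀ i : ℕ, ∀ x ∈ P ℓ h1 (hcL ▸ h2), v ^ i * x * (v ^ i)⁻¹ ∈ P ℓ h1 (hcL ▸ h2) ∧
          π (v ^ i * x * (v ^ i)⁻¹) = π x ^ s ^ i := by
        intro i
        induction i with
        | zero => intro x hx; simp [hx]
        | succ i ih =>
          intro x hx
          obtain ⟨hm, he⟩ := ih x hx
          have e1 : v ^ (i + 1) * x * (v ^ (i + 1))⁻¹ = v * (v ^ i * x * (v ^ i)⁻¹) * v⁻¹ := by
            rw [pow_succ']; group
          rw [e1]
          exact ⟨hPn ℓ h1 _ v hvB _ hm, by rw [hPa ℓ h1 _ _ hm, he, ← pow_mul, pow_succ]⟩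
      intro x hx
      rw [hu, (hit b x hx).2, pow_eq_pow_iff_modEq]
      have hx' : orderOf (π x) ∣ ℓ := orderOf_dvd_of_pow_eq_one (by
        obtain ⟨i, hi⟩ := hPd ℓ h1 _ x hx
        rw [← hi]
        show (d ^ i) ^ ℓ = 1
        rw [← zpow_natCast, ← zpow_mul, mul_comm, zpow_mul, zpow_natCast, hdℓ, one_zpow])
      refine Nat.ModEq.of_dvd hx' ((ZMod.natCast_eq_natCast_iff _ _ _).1 ?_)
      obtain ⟨r, hr⟩ := hd1
      have hb' : b = (ℓ - 1) * (r * (b / E)) + 1 := by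
        rw [← mul_assoc, ← hr]
        have := Nat.div_add_mod b E
        omega
      have hs0 : (s : ZMod ℓ) ≠ 0 := by rwa [Ne, ZMod.natCast_eq_zero_iff]
      rw [Nat.cast_pow, hb', pow_succ, pow_mul, ZMod.pow_card_sub_one_eq_one hs0, one_pow, one_mul]
  choose y hyP hy using hex
  refine ⟨u, fun ℓ => if h : ℓ.Prime ∧ ℓ ∣ L then y ℓ h.1 h.2 else 1, fun ℓ h1 h2 => ?_, ?_⟩
  · simp only [dif_pos (And.intro h1 h2)]; exact hy ℓ h1 h2
  intro ℓ ℓ' h1 h2 h1' h2' hne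
  simp only [dif_pos (And.intro h1 h2), dif_pos (And.intro h1' h2')]
  haveI : Fact ℓ.Prime := ⟨h1⟩
  haveI : Fact ℓ'.Prime := ⟨h1'⟩
  have m1 := hyP ℓ h1 h2
  have m2 := hyP ℓ' h1' h2'
  set a := y ℓ h1 h2
  set a' := y ℓ' h1' h2'
  have hdis := IsPGroup.disjoint_of_ne ℓ ℓ' hne _ _ (hPp ℓ h1 (hcL ▸ h2)) (hPp ℓ' h1' (hcL ▸ h2'))
  have hmem1 : a * a' * a⁻¹ * a'⁻¹ ∈ P ℓ' h1' (hcL ▸ h2') :=
    mul_mem (hPn ℓ' h1' _ a (hPB ℓ h1 _ m1) a' m2) (inv_mem m2)
  have hmem2 : a * a' * a⁻¹ * a'⁻¹ ∈ P ℓ h1 (hcL ▸ h2) := by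
    rw [show a * a' * a⁻¹ * a'⁻¹ = a * (a' * a⁻¹ * a'⁻¹) by group]
    exact mul_mem m1 (hPn ℓ h1 _ a' (hPB ℓ' h1' _ m2) a⁻¹ (inv_mem m1))
  have h0 := Subgroup.disjoint_def.1 hdis hmem2 hmem1
  show a * a' = a' * a
  calc a * a' = a * a' * a⁻¹ * a'⁻¹ * (a' * a) := by group
    _ = a' * a := by rw [h0, one_mul]

end CfsgLib.AltSectF4
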