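import Cfsg.Agent.Lib.AltSectG2.Alt

/-! Sections by alternating groups: the permutations of degree eleven and twelve that are used. -/

set_option autoImplicit false
set_option maxRecDepth 10000

namespace CfsgLib.AltSectF4

open Equiv

/-- The eleven cycle. -/
def cEleven : Perm (Fin 11) := ⟨fun i => i + 1, fun i => i + 10, by decide, by decide⟩

/-- An element cubing the eleven cycle. -/
def tEleven : Perm (Fin 11) := ⟨fun i => 3 * i, fun i => 4 * i, by decide, by decide⟩

theorem exists_eleven :
    ∃ c t : alternatingGroup (Fin 11), orderOf c = 11 ∧ t * c * t⁻¹ = c ^ 3 := by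
  refine ⟨⟨cEleven, Perm.mem_alternatingGroup.2 (by decide +kernel)⟩,
    ⟨tEleven, Perm.mem_alternatingGroup.2 (by decide +kernel)⟩, ?_, Subtype.ext (by decide +kernel)⟩
  haveI : Fact (Nat.Prime 11) := ⟨by norm_num⟩
  rw [← Subgroup.orderOf_coe]
  exact orderOf_eq_prime (by decide +kernel) (by decide +kernel)

/-- Two blocks of seven and five points acted on by affine maps. -/
def blocks (a b x y : ℕ) (i : Fin 12) : Fin 12 :=
  if (i : ℕ) < 7 then Fin.ofNat 12 ((a * i + x) % 7) else Fin.ofNat 12 ((b * ((i : ℕ) - 7) + y) % 5 + 7)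

/-- The product of a seven cycle and a five cycle. -/
def cTwelve : Perm (Fin 12) := ⟨blocks 1 1 1 1, blocks 1 1 6 4, by decide, by decide⟩

/-- An element raising it to the seventeenth power. -/
def tTwelve : Perm (Fin 12) := ⟨blocks 3 2 0 0, blocks 5 3 0 0, by decide, by decide⟩

theorem exists_thirtyfive :
    ∃ c t : alternatingGroup (Fin 12), orderOf c = 35 ∧ t * c * t⁻¹ = c ^ 17 := by
  refine ⟨⟨cTwelve, Perm.mem_alternatingGroup.2 (by decide +kernel)⟩,
    ⟨tTwelve, Perm.mem_alternatingGroup.2 (by decide +kernel)⟩, ?_, Subtype.ext (by decide +kernel)⟩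
  rw [← Subgroup.orderOf_coe, orderOf_eq_iff (by norm_num)]
  refine ⟨by decide +kernel, ?_⟩
  have h : ∀ m < 35, 0 < m → cTwelve ^ m ≠ 1 := by decide +kernel
  exact h

end CfsgLib.AltSectF4
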