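import Cfsg.Prelude.Def_ChevF4
import Cfsg.Agent.Lib.Chevalley.Check

/-! The roots of F4 on torus elements of order eleven or thirty five, as a finite check. -/

set_option autoImplicit false
set_option Elab.async false
set_option maxRecDepth 100000

namespace CfsgLib.AltSectF4

open Cfsg.Lie

/-- Quadruples of natural numbers. -/
abbrev Quad : Type := ℕ × ℕ × ℕ × ℕ

/-- The Cartan integers of the roots, shifted by two. -/
def tbl : List Quad := [(2, 2, 2, 1), (2, 2, 1, 3), (2, 0, 3, 2), (1, 2, 2, 2), (0, 4, 1, 2), (0, 2, 3, 1), (0, 2, 2, 3), (3, 1, 2, 2), (2, 3, 1, 2), (2, 1, 3, 1), (2, 1, 2, 3), (1, 3, 2, 1), (1, 3, 1, 3), (1, 1, 3, 2), (0, 3, 2, 2), (4, 2, 1, 2), (4, 0, 3, 1), (4, 0, 2, 3), (3, 2, 2, 1), (3, 2, 1, 3), (3, 0, 3, 2), (2, 4, 1, 1), (2, 4, 0, 3), (2, 2, 3, 0), (2, 2, 1, 4), (2, 0, 4, 1), (2, 0, 3, 3), (1, 4, 1, 2), (1, 2, 3, 1), (1, 2, 2, 3), (0, 4, 2, 1), (0, 4, 1, 3), (0, 2, 3, 2), (4, 1, 2, 2), (3, 3, 1, 2),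 (3, 1, 3, 1), (3, 1, 2, 3), (2, 3, 2, 1), (2, 3, 1, 3), (2, 1, 3, 2), (1, 3, 2, 2), (4, 2, 2, 1), (4, 2, 1, 3), (4, 0, 3, 2), (3, 2, 2, 2), (2, 4, 1, 2), (2, 2, 3, 1), (2, 2, 2, 3)]

/-- A component of a quadruple. -/
def comp : Quad → Fin 4 → ℕ
  | (a, _, _, _), 0 => a
  | (_, b, _, _), 1 => b
  | (_, _, c, _), 2 => c
  | (_, _, _, d), 3 => d

theorem tbl_spec : tbl.length = 48 ∧ ∀ (r : Fin 48) (k : Fin 4),
    chevF4.cartan k r = (comp (tbl.getD r (0, 0, 0, 0)) k : ℤ) - 2 := by decide +kernel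

/-- The value of a torus exponent at a root. -/
def val (n : ℕ) (a x : Quad) : ℕ :=
  (a.1 * x.1 + a.2.1 * x.2.1 + a.2.2.1 * x.2.2.1 + a.2.2.2 * x.2.2.2 +
    (2 * n - 2) * (a.1 + a.2.1 + a.2.2.1 + a.2.2.2)) % n

/-- The values of a torus exponent at the roots. -/
def vals (n : ℕ) (a : Quad) : List ℕ := tbl.map (val n a)

/-- The values are permuted by the multiplication by `s`. -/
def Balanced (n s : ℕ) (a : Quad) : Prop :=
  ((vals n a).map fun x => s * x % n).Perm (vals n a)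

/-- The Boolean test. -/
def balB (n s : ℕ) (a : Quad) : Bool :=
  (List.range n).all fun j => ((vals n a).map fun x => s * x % n).count j == (vals n a).count j

theorem balB_of {n s : ℕ} {a : Quad} (h : Balanced n s a) : balB n s a = true :=
  List.all_eq_true.2 fun j _ => beq_iff_eq.2 (h.count_eq j)

/-- The quadruples with leading entry one. -/
def reps (ℓ : ℕ) : List Quad :=
  ((List.range ℓ).flatMap fun b => (List.range ℓ).flatMap fun c => (List.range ℓ).map fun d => (1, b, c, d)) ++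
    (((List.range ℓ).flatMap fun c => (List.range ℓ).map fun d => (0, 1, c, d)) ++
      ((List.range ℓ).map (fun d => (0, 0, 1, d)) ++ [(0, 0, 0, 1)]))

theorem mem_reps {ℓ a b c d : ℕ} (hb : b < ℓ) (hc : c < ℓ) (hd : d < ℓ)
    (h : a = 1 ∨ a = 0 ∧ (b = 1 ∨ b = 0 ∧ (c = 1 ∨ c = 0 ∧ d = 1))) : (a, b, c, d) ∈ reps ℓ := by
  simp only [reps, List.mem_append, List.mem_flatMap, List.mem_map, List.mem_range, List.mem_singleton,
    Prod.mk.injEq]
  rcases h with rfl | ⟨rfl, rfl | ⟨rfl, rfl | ⟨rfl, rfl⟩⟩⟩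
  · exact Or.inl ⟨b, hb, c, hc, d, hd, rfl, rfl, rfl, rfl⟩
  · exact Or.inr (Or.inl ⟨c, hc, d, hd, rfl, rfl, rfl, rfl⟩)
  · exact Or.inr (Or.inr (Or.inl ⟨d, hd, rfl, rfl, rfl, rfl⟩))
  · exact Or.inr (Or.inr (Or.inr ⟨rfl, rfl, rfl, rfl⟩))

/-- The exponent modulo thirty five with given residues. -/
def crt (a b : Quad) : Quad :=
  ((21 * a.1 + 15 * b.1) % 35, (21 * a.2.1 + 15 * b.2.1) % 35, (21 * a.2.2.1 + 15 * b.2.2.1) % 35,
    (21 * a.2.2.2 + 15 * b.2.2.2) % 35)

theorem check_eleven : ((reps 11).all fun a => !balB 11 3 a) = true := by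
  simp only [reps, List.all_append, List.all_flatMap, Bool.and_eq_true]
  refine ⟨?_, by decide +kernel, by decide +kernel, by decide +kernel⟩
  rw [List.all_eq_true]
  intro b hb
  replace hb := List.mem_range.1 hb
  interval_cases b <;> decide +kernel

private theorem all_split {α : Type} {f : α → Bool} {l : List α} (n : ℕ) (h₁ : (l.take n).all f = true)
    (h₂ : (l.drop n).all f = true) : l.all f = true := by
  rw [← List.take_append_drop n l, List.all_append, h₁, h₂]; rfl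

theorem check_thirtyfive : (((reps 5).filter (balB 5 2)).all fun a =>
    ((reps 7).filter (balB 7 3)).all fun b => !balB 35 17 (crt a b)) = true := by
  iterate 8 (refine all_split 4 (by decide +kernel) ?_)
  decide +kernel

end CfsgLib.AltSectF4
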