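import Cfsg.Agent.Lib.AltSectF4.Table
import Cfsg.Agent.Lib.Chevalley.OrderF4
import Cfsg.Agent.Lib.ReflectionsSpinor.ChevFieldCent
import Mathlib.FieldTheory.Finite.Extension
import Mathlib.RingTheory.RootsOfUnity.PrimitiveRoots

/-!
In `F₄` over a finite field no element of order eleven is conjugate to its cube, and no element of order thirty five
to its seventeenth power, in characteristic prime to the order: such an element lies in a split torus over a finite
extension, where the values at the roots are not permuted by the power map.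
-/

set_option autoImplicit false
set_option linter.unusedSectionVars false
set_option maxRecDepth 10000

open Matrix Cfsg.Lie

namespace CfsgLib.AltSectF4

open CfsgLib.Chevalley

/-- All certificates of F4. -/
theorem fullF4 : Full chevF4 auxF4 := ⟨⟨cert_F4, posF4, by simp⟩, extraF4⟩

variable {K : Type*} [Field K] [Fintype K]

theorem injective_torusHom : Function.Injective (torusHom chevF4 K) :=
  ReflectionsSpinor.ChevField.torusHom_injective fullF4 (by
    have e := card_diagonalF4 (F := K)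
    rw [one_mul] at e
    exact e)

theorem torusHom_mem (c : Fin chevF4.rank → Kˣ) : torusHom chevF4 K c ∈ chevF4.group K := by
  rw [← Finset.univ_prod_mulSingle c, ← Subgroup.mem_comap]
  refine Subgroup.prod_mem _ fun i _ => ?_
  rw [Subgroup.mem_comap, torusHom_mulSingle fullF4.cert]
  exact mul_mem (by
    simp only [nG]
    exact mul_mem (mul_mem (xG_mem_group _ _ _) (xG_mem_group _ _ _)) (xG_mem_group _ _ _)) (by
    simp only [nG]
    exact mul_mem (mul_mem (xG_mem_group _ _ _) (xG_mem_group _ _ _)) (xG_mem_group _ _ _))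

variable (K) in
/-- The torus inside the group. -/
noncomputable def tor : (Fin chevF4.rank → Kˣ) →* ↥(chevF4.group K) :=
  (torusHom chevF4 K).codRestrict _ torusHom_mem

theorem tor_injective : Function.Injective (tor K) := fun _ _ h =>
  injective_torusHom (congrArg Subtype.val h)

theorem card_torus : Nat.card (tor K).range = (Fintype.card K - 1) ^ 4 := by
  classical
  rw [← Nat.card_congr (MonoidHom.ofInjective tor_injective).toEquiv, Nat.card_fun, Nat.card_fin,
    Nat.card_eq_fintype_card, Fintype.card_units]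
  rfl

/-- For a prime dividing the order of the multiplicative group, not a divisor of the Weyl group order, the index of
the split torus is prime to it. -/
theorem not_dvd_index {ℓ : ℕ} (hℓ : ℓ.Prime) (hdvd : ℓ ∣ Fintype.card K - 1) (hW : ¬ ℓ ∣ 1152) :
    ¬ ℓ ∣ (tor K).range.index := by
  haveI := Fact.mk hℓ
  set q := Fintype.card K with hq
  have hq2 : 2 ≤ q := Fintype.one_lt_card
  have hq1 : (q : ZMod ℓ) = 1 := by
    have h0 : ((q - 1 : ℕ) : ZMod ℓ) = 0 := (ZMod.natCast_eq_zero_iff _ _).2 hdvd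
    rwa [Nat.cast_sub (by omega), Nat.cast_one, sub_eq_zero] at h0
  have hgeom : ∀ d : ℕ, q ^ d - 1 = (q - 1) * ∑ i ∈ Finset.range d, q ^ i := fun d => by
    rw [mul_comm]; exact ((Nat.geomSum_eq hq2 d).symm ▸ (Nat.div_mul_cancel (by simpa using Nat.sub_dvd_pow_sub_pow q 1 d)).symm)
  have hcard := (tor K).range.card_mul_index
  have hG := cardF4 (F := K)
  rw [one_mul] at hG
  simp only [List.map_cons, List.map_nil, List.prod_cons, List.prod_nil, mul_one, ← hq] at hG
  set m := q ^ (chevF4.nroots / 2) * ((∑ i ∈ Finset.range 2, q ^ i) * ((∑ i ∈ Finset.range 6, q ^ i) *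
    ((∑ i ∈ Finset.range 8, q ^ i) * ∑ i ∈ Finset.range 12, q ^ i))) with hm
  have hi : (tor K).range.index = m := by
    refine Nat.eq_of_mul_eq_mul_left (show 0 < (q - 1) ^ 4 from pow_pos (by omega) 4) ?_
    rw [hm, ← card_torus, hcard, hG, hgeom 2, hgeom 6, hgeom 8, hgeom 12, card_torus]
    ring
  intro h
  rw [hi, ← ZMod.natCast_eq_zero_iff] at h
  rw [hm] at h
  push_cast [hq1] at h
  simp only [one_pow, Finset.sum_const, Finset.card_range, nsmul_eq_mul, mul_one, one_mul] at h
  refine hW ((ZMod.natCast_eq_zero_iff _ _).1 ?_)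
  rw [← h]
  norm_num

/-- An element of prime order goes into the torus, together with a commuting one of another such order. -/
theorem exists_torus_pair {ℓ ℓ' : ℕ} (hℓ : ℓ.Prime) (hdvd : ℓ ∣ Fintype.card K - 1) (hW : ¬ ℓ ∣ 1152)
    (hℓ' : ℓ'.Prime) (hdvd' : ℓ' ∣ Fintype.card K - 1) (hW' : ¬ ℓ' ∣ 1152) {y y' : ↥(chevF4.group K)}
    (hy : y ^ ℓ = 1) (hy' : y' ^ ℓ' = 1) (hcomm : Commute y y') :
    ∃ (g : ↥(chevF4.group K)) (c c' : Fin chevF4.rank → Kˣ),
      g * y * g⁻¹ = tor K c ∧ g * y' * g⁻¹ = tor K c' := by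
  classical
  have hfix : ∀ {ℓ : ℕ} {H : Type _} [Group H] [Finite H] (X : Subgroup H) (y : H), ℓ.Prime → ¬ ℓ ∣ X.index →
      y ^ ℓ = 1 → ∃ c : H, c * y * c⁻¹ ∈ X := by
    intro r H _ _ X y hr hX hy
    haveI := Fact.mk hr
    have hP : IsPGroup r (Subgroup.zpowers y) := by
      obtain ⟨j, -, hj⟩ := (Nat.dvd_prime_pow hr).1 (show orderOf y ∣ r ^ 1 by
        rw [pow_one]; exact orderOf_dvd_of_pow_eq_one hy)
      exact IsPGroup.of_card (by rw [Nat.card_zpowers, hj])
    obtain ⟨a, ha⟩ := hP.nonempty_fixed_point_of_prime_not_dvd_card (H ⧸ X) hX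
    induction a using QuotientGroup.induction_on with
    | H c =>
      refine ⟨c⁻¹, ?_⟩
      have e := ha ⟨y, Subgroup.mem_zpowers y⟩
      change ((y * c : H) : H ⧸ X) = (c : H ⧸ X) at e
      rw [eq_comm, QuotientGroup.eq] at e
      rw [inv_inv, mul_assoc]
      exact e
  set T := (tor K).range with hT
  obtain ⟨g₁, c, hc⟩ := hfix T y hℓ (not_dvd_index hℓ hdvd hW) hy
  set C : Subgroup ↥(chevF4.group K) := Subgroup.centralizer {g₁ * y * g₁⁻¹} with hC
  have hTC : T ≤ C := by
    rintro _ ⟨d, rfl⟩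
    rw [hC, Subgroup.mem_centralizer_singleton_iff, ← hc, ← map_mul, ← map_mul, mul_comm]
  have hy'C : g₁ * y' * g₁⁻¹ ∈ C := by
    rw [hC, Subgroup.mem_centralizer_singleton_iff]
    calc g₁ * y' * g₁⁻¹ * (g₁ * y * g₁⁻¹) = g₁ * (y' * y) * g₁⁻¹ := by group
      _ = g₁ * (y * y') * g₁⁻¹ := by rw [hcomm.eq]
      _ = _ := by group
  have hidx : ¬ ℓ' ∣ (T.subgroupOf C).index := fun h =>
    not_dvd_index hℓ' hdvd' hW' (h.trans (Dvd.intro _ (Subgroup.relIndex_mul_index hTC)))
  obtain ⟨g₂, hg₂⟩ := hfix (T.subgroupOf C) ⟨_, hy'C⟩ hℓ' hidx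
    (Subtype.ext (show (g₁ * y' * g₁⁻¹) ^ ℓ' = 1 by rw [conj_pow, hy', mul_one, mul_inv_cancel]))
  obtain ⟨c', hc'⟩ := Subgroup.mem_subgroupOf.1 hg₂
  refine ⟨g₂ * g₁, c, c', ?_, ?_⟩
  · have h2 := Subgroup.mem_centralizer_singleton_iff.1 g₂.2
    calc (g₂ : ↥(chevF4.group K)) * g₁ * y * (g₂ * g₁)⁻¹ = g₂ * (g₁ * y * g₁⁻¹) * (g₂ : ↥(chevF4.group K))⁻¹ := by
          group
      _ = g₁ * y * g₁⁻¹ := by rw [h2, mul_inv_cancel_right]
      _ = _ := hc.symm
  · rw [hc']
    simp only [Subgroup.coe_mul, InvMemClass.coe_inv]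
    group

/-- The values at the roots of a torus element conjugate to a power are permuted by that power. -/
theorem balanced_of_conj {n s : ℕ} (hn : 2 ≤ n) {ζ : Kˣ} (hζ : IsPrimitiveRoot ζ n) {c : Fin chevF4.rank → Kˣ}
    (a : Quad) (hc : ∀ k : Fin 4, c k = ζ ^ comp a k) {w : ↥(chevF4.group K)}
    (hw : w * tor K c * w⁻¹ = tor K c ^ s) : Balanced n s a := by
  classical
  haveI : NeZero n := ⟨by omega⟩
  have hchi : ∀ r : Fin chevF4.nroots, chi chevF4 r c = ζ ^ val n a (tbl.getD r (0, 0, 0, 0)) := by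
    intro r
    show (∏ k : Fin 4, c k ^ chevF4.cartan k r) = _
    rw [Fin.prod_univ_four]
    simp only [hc, tbl_spec.2 r, ← zpow_natCast, ← _root_.zpow_mul, ← _root_.zpow_add]
    rw [← mul_inv_eq_one, ← _root_.zpow_neg, ← _root_.zpow_add, hζ.zpow_eq_one_iff_dvd, ← sub_eq_add_neg,
      ← Int.modEq_iff_dvd]
    simp only [val, Int.natCast_mod]
    refine Int.ModEq.trans (Int.mod_modEq _ _) ?_
    obtain ⟨a0, a1, a2, a3⟩ := a
    generalize tbl.getD r (0, 0, 0, 0) = x
    obtain ⟨x0, x1, x2, x3⟩ := x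
    simp only [comp]
    push_cast [Nat.cast_sub (show 2 ≤ 2 * n by omega)]
    rw [Int.modEq_iff_dvd]
    exact ⟨-2 * ((a0 : ℤ) + a1 + a2 + a3), by ring⟩
  set v : chevF4.Idx → K := Sum.elim (fun _ => 1) fun r => ((chi chevF4 r c : Kˣ) : K) with hv
  have hroots : Finset.univ.val.map v = Finset.univ.val.map fun i => v i ^ s := by
    have h1 : (Matrix.diagonal v).charpoly = (Matrix.diagonal fun i => v i ^ s).charpoly := by
      have h2 := congrArg (fun M : ↥(chevF4.group K) =>
        ((M : GL chevF4.Idx K) : Matrix chevF4.Idx chevF4.Idx K).charpoly) hw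
      simp only [Subgroup.coe_mul, InvMemClass.coe_inv, SubmonoidClass.coe_pow, Units.val_mul,
        Units.val_pow_eq_pow_val] at h2
      have e3 := Matrix.charpoly_units_conj (w : GL chevF4.Idx K)
        ((torusHom chevF4 K c : GL chevF4.Idx K) : Matrix chevF4.Idx chevF4.Idx K)
      rw [Matrix.coe_units_inv] at h2
      rw [show ((tor K c : ↥(chevF4.group K)) : GL chevF4.Idx K) = torusHom chevF4 K c from rfl, e3,
        coe_torusHom, Matrix.diagonal_pow] at h2
      exact h2
    rw [Matrix.charpoly_diagonal, Matrix.charpoly_diagonal] at h1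
    have h3 := congrArg Polynomial.roots h1
    have key : ∀ u : chevF4.Idx → K,
        (∏ i, (Polynomial.X - Polynomial.C (u i))).roots = Finset.univ.val.map u := by
      intro u
      rw [← Polynomial.roots_multiset_prod_X_sub_C (Finset.univ.val.map u), Multiset.map_map]
      rfl
    rwa [key, key] at h3
  have hsplit : ∀ u : chevF4.Idx → K, Finset.univ.val.map u =
      (Finset.univ.val.map fun j => u (Sum.inl j)) + Finset.univ.val.map fun r => u (Sum.inr r) := by
    intro u
    rw [← Finset.univ_disjSum_univ, Finset.val_disjSum, Multiset.disjSum, Multiset.map_add, Multiset.map_map,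
      Multiset.map_map]
    rfl
  rw [hsplit, hsplit] at hroots
  simp only [hv, Sum.elim_inl, Sum.elim_inr, one_pow] at hroots
  replace hroots := add_left_cancel hroots
  set f : ℕ → K := fun x => ((ζ ^ x : Kˣ) : K) with hf
  have hlist : ∀ g : ℕ → K, (Finset.univ.val.map fun r : Fin chevF4.nroots => g (val n a (tbl.getD r (0, 0, 0, 0)))) =
      ((vals n a).map g : List K) := by
    intro g
    rw [Fin.univ_val_map]
    refine congrArg _ (List.ext_getElem ?_ fun i h1 h2 => ?_)
    · simp [vals, tbl_spec.1, show chevF4.nroots = 48 from rfl]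
    · simp only [List.length_map, vals] at h2
      simp [vals, List.getElem?_eq_getElem h2]
  have hL : (Finset.univ.val.map fun r : Fin chevF4.nroots => ((chi chevF4 r c : Kˣ) : K)) =
      ((vals n a).map f : List K) := by
    rw [← hlist]
    simp only [hf, hchi]
  have hR : (Finset.univ.val.map fun r : Fin chevF4.nroots => ((chi chevF4 r c : Kˣ) : K) ^ s) =
      (((vals n a).map fun x => s * x % n).map f : List K) := by
    rw [List.map_map, ← hlist]
    refine Multiset.map_congr rfl fun r _ => ?_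
    simp only [hf, hchi, Function.comp_apply, ← Units.val_pow_eq_pow_val, ← pow_mul]
    congr 1
    rw [pow_eq_pow_iff_modEq, ← hζ.eq_orderOf, mul_comm]
    exact (Nat.mod_modEq _ _).symm
  rw [hL, hR, Multiset.coe_eq_coe] at hroots
  have hinj : Set.InjOn f (Set.Iio n) := fun x hx y hy h => hζ.pow_inj hx hy (Units.ext h)
  have hlt : ∀ l : List ℕ, (∀ x ∈ l, x < n) → (l.map f).map (Function.invFunOn f (Set.Iio n)) = l := by
    intro l hl
    rw [List.map_map]
    refine (List.map_congr_left fun x hx => ?_).trans (List.map_id l)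
    exact hinj.leftInvOn_invFunOn (hl x hx)
  have h := hroots.map (Function.invFunOn f (Set.Iio n))
  rw [hlt _ (by simp only [vals, val, List.mem_map]; rintro x ⟨y, -, rfl⟩; exact Nat.mod_lt _ (by omega)),
    hlt _ (by simp only [List.mem_map]; rintro x ⟨y, -, rfl⟩; exact Nat.mod_lt _ (by omega))] at h
  exact h.symm

/-- A torus element of prime order in terms of a primitive root with leading exponent one. -/
theorem exists_lead {ℓ : ℕ} (hℓ : ℓ.Prime) {c : Fin chevF4.rank → Kˣ} (hc : orderOf c = ℓ) :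
    ∃ (ζ : Kˣ) (a : Quad), IsPrimitiveRoot ζ ℓ ∧ a ∈ reps ℓ ∧ ∀ k : Fin 4, c k = ζ ^ comp a k := by
  classical
  haveI := Fact.mk hℓ
  set C : Fin 4 → Kˣ := c with hC
  have hpow : ∀ k : Fin 4, C k ^ ℓ = 1 := fun k => congrFun (hc ▸ pow_orderOf_eq_one c : c ^ ℓ = 1) k
  have hprim : ∀ k : Fin 4, C k ≠ 1 → IsPrimitiveRoot (C k) ℓ := fun k hk =>
    (IsPrimitiveRoot.iff_orderOf).2 (orderOf_eq_prime (hpow k) hk)
  have hlog : ∀ {ζ : Kˣ}, IsPrimitiveRoot ζ ℓ → ∀ k : Fin 4, ∃ i < ℓ, ζ ^ i = C k := by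
    intro ζ hζ k
    obtain ⟨i, hi, e⟩ := (hζ.map_of_injective (f := Units.coeHom K) Units.val_injective).eq_pow_of_pow_eq_one
      (ξ := ((C k : Kˣ) : K)) (by rw [← Units.val_pow_eq_pow_val, hpow, Units.val_one])
    exact ⟨i, hi, Units.ext (by rw [Units.val_pow_eq_pow_val]; exact e)⟩
  have hne : ¬ ∀ k, C k = 1 := fun h => hℓ.one_lt.ne' (by
    rw [← hc]; exact orderOf_eq_one_iff.2 (funext h))
  by_cases h0 : C 0 ≠ 1
  · obtain ⟨b, hb, eb⟩ := hlog (hprim 0 h0) 1
    obtain ⟨e, he, ee⟩ := hlog (hprim 0 h0) 2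
    obtain ⟨d, hd, ed⟩ := hlog (hprim 0 h0) 3
    exact ⟨C 0, (1, b, e, d), hprim 0 h0, mem_reps hb he hd (Or.inl rfl),
      fun k => by fin_cases k <;> simp [comp, eb, ee, ed]⟩
  push Not at h0
  by_cases h1 : C 1 ≠ 1
  · obtain ⟨e, he, ee⟩ := hlog (hprim 1 h1) 2
    obtain ⟨d, hd, ed⟩ := hlog (hprim 1 h1) 3
    exact ⟨C 1, (0, 1, e, d), hprim 1 h1, mem_reps hℓ.one_lt he hd (Or.inr ⟨rfl, Or.inl rfl⟩),
      fun k => by fin_cases k <;> simp [comp, h0, ee, ed]⟩
  push Not at h1
  by_cases h2 : C 2 ≠ 1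
  · obtain ⟨d, hd, ed⟩ := hlog (hprim 2 h2) 3
    exact ⟨C 2, (0, 0, 1, d), hprim 2 h2,
      mem_reps hℓ.pos hℓ.one_lt hd (Or.inr ⟨rfl, Or.inr ⟨rfl, Or.inl rfl⟩⟩),
      fun k => by fin_cases k <;> simp [comp, h0, h1, ed]⟩
  push Not at h2
  have h3 : C 3 ≠ 1 := fun h => hne fun k => by fin_cases k <;> assumption
  exact ⟨C 3, (0, 0, 0, 1), hprim 3 h3,
    mem_reps hℓ.pos hℓ.pos hℓ.one_lt (Or.inr ⟨rfl, Or.inr ⟨rfl, Or.inr ⟨rfl, rfl⟩⟩⟩),
    fun k => by fin_cases k <;> simp [comp, h0, h1, h2]⟩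

variable {F : Type*} [Field F] [Fintype F] {p : ℕ} [hp : Fact p.Prime] [CharP F p]

/-- A prime to the characteristic gives an extension with many roots of unity. -/
theorem exists_ext (p : ℕ) [Fact p.Prime] [CharP F p] {n : ℕ} (hn : n.Coprime p) (hn0 : 0 < n) :
    ∃ d : ℕ, 0 < d ∧ n ∣ Fintype.card F ^ d - 1 := by
  obtain ⟨k, -, hk⟩ := FiniteField.card F p
  refine ⟨n.totient, Nat.totient_pos.2 hn0, (Nat.modEq_iff_dvd' (Nat.one_le_pow _ _ Fintype.card_pos)).1 ?_⟩
  exact (Nat.ModEq.pow_totient (by rw [hk]; exact (hn.symm.pow_left _))).symm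

/-- The group seen in a group over a bigger field. -/
noncomputable def lift (E : Type*) [Field E] [Algebra F E] : ↥(chevF4.group F) →* ↥(chevF4.group E) :=
  ((ReflectionsSpinor.ChevField.push chevF4 (algebraMap F E)).comp (chevF4.group F).subtype).codRestrict _
    fun z => ReflectionsSpinor.ChevField.push_mem_group cert_F4 _ z.2

theorem lift_injective (E : Type*) [Field E] [Algebra F E] : Function.Injective (lift (F := F) E) :=
  fun _ _ h => Subtype.ext (ReflectionsSpinor.ChevField.push_injective _ (congrArg Subtype.val h))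

include hp in
/-- No element of order eleven is conjugate to its cube outside characteristic eleven. -/
theorem no_eleven (hp11 : p ≠ 11) {u y : ↥(chevF4.group F)} (hy : orderOf y = 11)
    (hconj : u * y * u⁻¹ = y ^ 3) : False := by
  have h11 : Nat.Prime 11 := by norm_num
  obtain ⟨d, hd, hdvd⟩ := exists_ext (F := F) p
    (h11.coprime_iff_not_dvd.2 fun h => hp11 ((Nat.prime_dvd_prime_iff_eq h11 hp.out).1 h).symm) (by norm_num)
  haveI : NeZero d := ⟨hd.ne'⟩
  let E := FiniteField.Extension F p d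
  letI : Fintype E := Fintype.ofFinite E
  have hE : 11 ∣ Fintype.card E - 1 := by
    rwa [← Nat.card_eq_fintype_card, FiniteField.natCard_extension, Nat.card_eq_fintype_card]
  set y' := lift (F := F) E y
  have hy' : orderOf y' = 11 := by rw [orderOf_injective _ (lift_injective E), hy]
  obtain ⟨g, c, -, hc, -⟩ := exists_torus_pair h11 hE (by norm_num) h11 hE (by norm_num) (y := y') (y' := y')
    (hy' ▸ pow_orderOf_eq_one y') (hy' ▸ pow_orderOf_eq_one y') (Commute.refl y')
  have hco : orderOf c = 11 := by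
    rw [← orderOf_injective _ tor_injective c, ← hc, ← hy']
    exact (MulAut.conj g).orderOf_eq y'
  obtain ⟨ζ, a, hζ, ha, hac⟩ := exists_lead h11 hco
  have hb : Balanced 11 3 a := by
    refine balanced_of_conj (by norm_num) hζ a hac (w := g * lift (F := F) E u * g⁻¹) ?_
    rw [← hc, conj_pow, ← map_pow, ← hconj, map_mul, map_mul, map_inv]
    group
    rfl
  have := List.all_eq_true.1 check_eleven a ha
  rw [balB_of hb] at this
  exact Bool.false_ne_true this

include hp in
/-- No commuting elements of orders five and seven are conjugate to their seventeenth powers by one element. -/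
theorem no_thirtyfive (hp5 : p ≠ 5) (hp7 : p ≠ 7) {u y z : ↥(chevF4.group F)} (hy : orderOf y = 5)
    (hz : orderOf z = 7) (hyz : Commute y z) (hcy : u * y * u⁻¹ = y ^ 17) (hcz : u * z * u⁻¹ = z ^ 17) :
    False := by
  have h5 : Nat.Prime 5 := by norm_num
  have h7 : Nat.Prime 7 := by norm_num
  have hcop : (35 : ℕ).Coprime p := by
    rw [show (35 : ℕ) = 5 * 7 from rfl, Nat.coprime_mul_iff_left]
    exact ⟨(Nat.coprime_primes h5 hp.out).2 (Ne.symm hp5), (Nat.coprime_primes h7 hp.out).2 (Ne.symm hp7)⟩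
  obtain ⟨d, hd, hdvd⟩ := exists_ext (F := F) p hcop (by norm_num)
  haveI : NeZero d := ⟨hd.ne'⟩
  let E := FiniteField.Extension F p d
  letI : Fintype E := Fintype.ofFinite E
  have hE : 35 ∣ Fintype.card E - 1 := by
    rwa [← Nat.card_eq_fintype_card, FiniteField.natCard_extension, Nat.card_eq_fintype_card]
  set y' := lift (F := F) E y
  set z' := lift (F := F) E z
  have hy' : orderOf y' = 5 := by rw [orderOf_injective _ (lift_injective E), hy]
  have hz' : orderOf z' = 7 := by rw [orderOf_injective _ (lift_injective E), hz]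
  obtain ⟨g, c, c', hc, hc'⟩ := exists_torus_pair h5 ((by norm_num : 5 ∣ 35).trans hE) (by norm_num) h7
    ((by norm_num : 7 ∣ 35).trans hE) (by norm_num) (y := y') (y' := z')
    (hy' ▸ pow_orderOf_eq_one y') (hz' ▸ pow_orderOf_eq_one z') (hyz.map _)
  have hco : orderOf c = 5 := by
    rw [← orderOf_injective _ tor_injective c, ← hc, ← hy']
    exact (MulAut.conj g).orderOf_eq y'
  have hco' : orderOf c' = 7 := by
    rw [← orderOf_injective _ tor_injective c', ← hc', ← hz']
    exact (MulAut.conj g).orderOf_eq z'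
  obtain ⟨ξ, a, hξ, ha, hac⟩ := exists_lead h5 hco
  obtain ⟨η, b, hη, hb, hbc⟩ := exists_lead h7 hco'
  set w := g * lift (F := F) E u * g⁻¹ with hwdef
  have hwc : w * tor E c * w⁻¹ = tor E c ^ 17 := by
    rw [hwdef, ← hc, conj_pow, ← map_pow, ← hcy, map_mul, map_mul, map_inv]
    group
    rfl
  have hwc' : w * tor E c' * w⁻¹ = tor E c' ^ 17 := by
    rw [hwdef, ← hc', conj_pow, ← map_pow, ← hcz, map_mul, map_mul, map_inv]
    group
    rfl
  have b5 : Balanced 5 2 a := balanced_of_conj (by norm_num) hξ a hac (hwc.trans (by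
    rw [← map_pow, ← map_pow, pow_eq_pow_mod 17 (hco ▸ pow_orderOf_eq_one c)]))
  have b7 : Balanced 7 3 b := balanced_of_conj (by norm_num) hη b hbc (hwc'.trans (by
    rw [← map_pow, ← map_pow, pow_eq_pow_mod 17 (hco' ▸ pow_orderOf_eq_one c')]))
  set ζ := ξ * η with hζdef
  have hζ : IsPrimitiveRoot ζ 35 := by
    rw [IsPrimitiveRoot.iff_orderOf, hζdef, (Commute.all ξ η).orderOf_mul_eq_mul_orderOf_of_coprime
      (by rw [← hξ.eq_orderOf, ← hη.eq_orderOf]; decide), ← hξ.eq_orderOf, ← hη.eq_orderOf]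
  have hζp : ∀ i j : ℕ, ζ ^ ((21 * i + 15 * j) % 35) = ξ ^ i * η ^ j := by
    intro i j
    rw [← pow_eq_pow_mod _ hζ.pow_eq_one, hζdef, mul_pow, pow_eq_pow_mod (21 * i + 15 * j) hξ.pow_eq_one,
      pow_eq_pow_mod (21 * i + 15 * j) hη.pow_eq_one, show (21 * i + 15 * j) % 5 = i % 5 by omega,
      show (21 * i + 15 * j) % 7 = j % 7 by omega, ← pow_eq_pow_mod _ hξ.pow_eq_one,
      ← pow_eq_pow_mod _ hη.pow_eq_one]
  have b35 : Balanced 35 17 (crt a b) := by
    refine balanced_of_conj (c := c * c') (by norm_num) hζ _ (fun k => ?_) (w := w) ?_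
    · show c k * c' k = _
      rw [hac k, hbc k, ← hζp]
      obtain ⟨a0, a1, a2, a3⟩ := a
      obtain ⟨b0, b1, b2, b3⟩ := b
      fin_cases k <;> rfl
    · have hcc : Commute (tor E c) (tor E c') := (Commute.all c c').map _
      rw [map_mul, hcc.mul_pow, ← hwc, ← hwc']
      group
  have h := List.all_eq_true.1 (List.all_eq_true.1 check_thirtyfive a
    (List.mem_filter.2 ⟨ha, balB_of b5⟩)) b (List.mem_filter.2 ⟨hb, balB_of b7⟩)
  rw [balB_of b35] at h
  exact Bool.false_ne_true h

end CfsgLib.AltSectF4
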